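import Cfsg.Agent.Lib.Helper19.Hed.DataA

/-! Generated file: Todd–Coxeter certificate data and checks. -/

set_option autoImplicit false
set_option maxRecDepth 1000000

namespace Cfsg.Agent.Lib.Helper19.Hed

open Cfsg.Agent.Lib.Helper19.TCS (evn evn_rot evn_rev evn_pair AllS forall_of_allS lift_rels mk_eq_lift cox_swap shapeI prod_rep index_of_equiv orbit_ncard orbit_image ncard_interval fix_of_closure RC)
open Cfsg.Agent.Lib.Helper19.TC2


theorem al0 : al cert 0 = true := by decide +kernel

theorem row_ok0 : loop (row cert) 0 1000 = true := by decide +kernel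

theorem row_ok1 : loop (row cert) 1000 1000 = true := by decide +kernel

theorem row_ok2 : loop (row cert) 2000 1000 = true := by decide +kernel

end Cfsg.Agent.Lib.Helper19.Hed
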