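import Cfsg.Agent.Lib.Helper19.Hed.DataB

/-! Generated file: Todd–Coxeter certificate data and checks. -/

set_option autoImplicit false
set_option maxRecDepth 1000000

namespace Cfsg.Agent.Lib.Helper19.Hed

open Cfsg.Agent.Lib.Helper19.TCS (evn evn_rot evn_rev evn_pair AllS forall_of_allS lift_rels mk_eq_lift cox_swap shapeI prod_rep index_of_equiv orbit_ncard orbit_image ncard_interval fix_of_closure RC)
open Cfsg.Agent.Lib.Helper19.TC2

theorem cl_0 : loop (chkCl cB sgw 1 106) 1 105 = true := by decide +kernel

theorem re_0 : loop (chkRe cB sgw tHP 19 524287 1) 2 104 = true := by decide +kernel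

theorem cl_1 : loop (chkCl cB sgw 106 826) 106 720 = true := by decide +kernel

theorem re_1 : loop (chkRe cB sgw tHP 19 524287 106) 107 719 = true := by decide +kernel

theorem cl_2 : loop (chkCl cB sgw 826 1666) 826 840 = true := by decide +kernel

theorem re_2 : loop (chkRe cB sgw tHP 19 524287 826) 827 839 = true := by decide +kernel

theorem cl_3 : loop (chkCl cB sgw 1666 2506) 1666 840 = true := by decide +kernel

theorem re_3 : loop (chkRe cB sgw tHP 19 524287 1666) 1667 839 = true := by decide +kernel

theorem cl_4 : loop (chkCl cB sgw 2506 3850) 2506 1344 = true := by decide +kernel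

theorem re_4 : loop (chkRe cB sgw tHP 19 524287 2506) 2507 1343 = true := by decide +kernel

theorem cl_5 : loop (chkCl cB sgw 3850 8330) 3850 4480 = true := by decide +kernel

theorem re_5 : loop (chkRe cB sgw tHP 19 524287 3850) 3851 4479 = true := by decide +kernel

end Cfsg.Agent.Lib.Helper19.Hed
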